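import Cfsg.Agent.Lib.SympUnipotent.Identity
import Mathlib

/-!
Counting the unipotent isometries of a nondegenerate alternating space by the dimension of their
fixed spaces: pairs (element, nonzero fixed vector) are counted through the stabiliser of a vector.
-/

set_option autoImplicit false
set_option linter.unusedSectionVars false

universe u

namespace CfsgLib.SympUnipotent

open Module LinearMap

variable {F : Type u} [Field F] [Fintype F]
variable {V : Type u} [AddCommGroup V] [Module F V] [Finite V]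
variable {V' : Type u} [AddCommGroup V'] [Module F V'] [Finite V']

/-- Unipotent isometries. -/
abbrev Uni (B : V →ₗ[F] V →ₗ[F] F) : Type u :=
  {g : Module.End F V // (∀ x y, B (g x) (g y) = B x y) ∧ IsNilpotent (g - 1)}

/-- Number of vectors fixed by `g`. -/
noncomputable abbrev fixCard (g : Module.End F V) : ℕ := Nat.card {x // g x = x}

theorem natCard_eq_pow (W : Submodule F V) :
    Nat.card W = Fintype.card F ^ finrank F W := by
  rw [natCard_eq_pow_finrank (K := F), Nat.card_eq_fintype_card]

theorem fixCard_eq (g : Module.End F V) :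
    fixCard g = Fintype.card F ^ finrank F (ker (g - 1)) := by
  rw [← natCard_eq_pow]
  exact Nat.card_congr (Equiv.subtypeEquivRight fun x => by
    simp [sub_eq_zero])

theorem one_lt_q : 1 < Fintype.card F := Fintype.one_lt_card

theorem pow_q_inj {a b : ℕ} (h : Fintype.card F ^ a = Fintype.card F ^ b) : a = b :=
  Nat.pow_right_injective one_lt_q h

/-- Transport of unipotent isometries along an isometry. -/
noncomputable def uniEquiv {B : V →ₗ[F] V →ₗ[F] F} {B' : V' →ₗ[F] V' →ₗ[F] F} (e : V ≃ₗ[F] V')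
    (he : ∀ x y, B' (e x) (e y) = B x y) : Uni B ≃ Uni B' :=
  (LinearEquiv.conjAlgEquiv F e).toEquiv.subtypeEquiv fun g => by
    constructor
    · rintro ⟨h1, h2⟩
      refine ⟨fun x y => ?_, ?_⟩
      · obtain ⟨x, rfl⟩ := e.surjective x
        obtain ⟨y, rfl⟩ := e.surjective y
        simp [he, h1]
      · have := h2.map (LinearEquiv.conjAlgEquiv F e)
        rwa [map_sub, map_one] at this
    · rintro ⟨h1, h2⟩
      refine ⟨fun x y => ?_, ?_⟩
      · have := h1 (e x) (e y)
        simpa [he] using this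
      · rw [← IsNilpotent.map_iff (LinearEquiv.conjAlgEquiv F e).injective]
        rwa [map_sub, map_one]

theorem fixCard_uniEquiv {B : V →ₗ[F] V →ₗ[F] F} {B' : V' →ₗ[F] V' →ₗ[F] F} (e : V ≃ₗ[F] V')
    (he : ∀ x y, B' (e x) (e y) = B x y) (g : Uni B) :
    fixCard (uniEquiv e he g).1 = fixCard g.1 :=
  (Nat.card_congr (e.toEquiv.subtypeEquiv fun x => by simp [uniEquiv])).symm

/-! The stabiliser of a vector, in the model `F × W × F`. -/

variable {W : Type u} [AddCommGroup W] [Module F W] [Finite W]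

/-- The form of the model `F × W × F`. -/
def modelForm (B : W →ₗ[F] W →ₗ[F] F) : (F × W × F) →ₗ[F] (F × W × F) →ₗ[F] F :=
  LinearMap.mk₂ F (fun x y => x.1 * y.2.2 - x.2.2 * y.1 + B x.2.1 y.2.1)
    (fun a b c => by simp; ring) (fun r a c => by simp; ring)
    (fun a b c => by simp; ring) (fun r a c => by simp; ring)

@[simp] theorem modelForm_apply (B : W →ₗ[F] W →ₗ[F] F) (x y : F × W × F) :
    modelForm B x y = x.1 * y.2.2 - x.2.2 * y.1 + B x.2.1 y.2.1 := rfl

/-- The element of the stabiliser of `(1,0,0)` with data `u, a, c`. -/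
def stabElt (B : W →ₗ[F] W →ₗ[F] F) (u : Module.End F W) (a : W) (c : F) :
    Module.End F (F × W × F) where
  toFun x := (x.1 - B (u x.2.1) a + c * x.2.2, u x.2.1 + x.2.2 • a, x.2.2)
  map_add' x y := by
    refine Prod.ext ?_ (Prod.ext ?_ rfl)
    · simp; ring
    · simp [add_smul]; abel
  map_smul' r x := by
    refine Prod.ext ?_ (Prod.ext ?_ rfl)
    · simp; ring
    · simp [smul_smul]

@[simp] theorem stabElt_apply (B : W →ₗ[F] W →ₗ[F] F) (u : Module.End F W) (a : W) (c : F)
    (x : F × W × F) :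
    stabElt B u a c x = (x.1 - B (u x.2.1) a + c * x.2.2, u x.2.1 + x.2.2 • a, x.2.2) := rfl

variable {B : W →ₗ[F] W →ₗ[F] F}

theorem stabElt_isometry (hB : B.IsAlt) {u : Module.End F W} (hu : ∀ x y, B (u x) (u y) = B x y)
    (a : W) (c : F) (x y : F × W × F) :
    modelForm B (stabElt B u a c x) (stabElt B u a c y) = modelForm B x y := by
  have h1 : B a (u y.2.1) = -B (u y.2.1) a := (hB.neg _ _).symm
  simp only [modelForm_apply, stabElt_apply, map_add, map_smul, LinearMap.add_apply,
    LinearMap.smul_apply, smul_eq_mul, hu, h1, hB a]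
  ring

theorem sub_one_pow_stab (u : Module.End F W) (a : W) (c : F) :
    ∀ (k : ℕ) (α : F) (w : W),
      ∃ α', ((stabElt B u a c - 1) ^ k) (α, w, 0) = (α', ((u - 1) ^ k) w, 0)
  | 0, α, w => ⟨α, by simp⟩
  | k + 1, α, w => by
    obtain ⟨α', h⟩ := sub_one_pow_stab u a c k α w
    refine ⟨-B (u (((u - 1) ^ k) w)) a, ?_⟩
    rw [pow_succ', Module.End.mul_apply, h, pow_succ', Module.End.mul_apply]
    simp [sub_eq_add_neg]

theorem isNilpotent_stab (u : Module.End F W) (a : W) (c : F) :
    IsNilpotent (stabElt B u a c - 1) ↔ IsNilpotent (u - 1) := by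
  constructor
  · rintro ⟨N, hN⟩
    refine ⟨N, LinearMap.ext fun w => ?_⟩
    obtain ⟨α', h⟩ := sub_one_pow_stab (B := B) u a c N 0 w
    rw [hN] at h
    exact (congrArg (fun x : F × W × F => x.2.1) h).symm
  · rintro ⟨N, hN⟩
    refine ⟨1 + N + 1, LinearMap.ext fun x => ?_⟩
    rw [pow_succ, Module.End.mul_apply,
      show (stabElt B u a c - 1) x =
        (c * x.2.2 - B (u x.2.1) a, (u x.2.1 + x.2.2 • a) - x.2.1, 0) by
        refine Prod.ext ?_ (Prod.ext ?_ ?_) <;> simp; ring,
      pow_add, Module.End.mul_apply, pow_one]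
    obtain ⟨α', h⟩ := sub_one_pow_stab (B := B) u a c N (c * x.2.2 - B (u x.2.1) a)
      ((u x.2.1 + x.2.2 • a) - x.2.1)
    rw [h, hN]
    simp

theorem exists_eq_stabElt (hB : B.IsAlt) (g : Module.End F (F × W × F))
    (hg : ∀ x y, modelForm B (g x) (g y) = modelForm B x y) (hv : g (1, 0, 0) = (1, 0, 0)) :
    ∃ (u : Module.End F W) (a : W) (c : F), (∀ x y, B (u x) (u y) = B x y) ∧
      g = stabElt B u a c := by
  have hb : ∀ x, (g x).2.2 = x.2.2 := fun x => by simpa [hv] using hg (1, 0, 0) x
  let iW : W →ₗ[F] F × W × F := (LinearMap.inr F F (W × F)).comp (LinearMap.inl F W F)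
  let u : Module.End F W := (LinearMap.fst F W F).comp ((LinearMap.snd F F (W × F)).comp (g.comp iW))
  have hu0 : ∀ w, (g (0, w, 0)).2.1 = u w := fun w => rfl
  have hu : ∀ x y, B (u x) (u y) = B x y := fun x y => by
    simpa [hu0, hb] using hg (0, x, 0) (0, y, 0)
  have hl : ∀ w, (g (0, w, 0)).1 = -B (u w) (g (0, 0, 1)).2.1 := fun w => by
    have := hg (0, w, 0) (0, 0, 1)
    simp [hb, hu0] at this
    linear_combination this
  refine ⟨u, (g (0, 0, 1)).2.1, (g (0, 0, 1)).1, hu, LinearMap.ext fun x => ?_⟩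
  have hx : x = x.1 • (1, (0 : W), (0 : F)) + (0, x.2.1, 0) + x.2.2 • ((0 : F), (0 : W), (1 : F)) := by
    refine Prod.ext ?_ (Prod.ext ?_ ?_) <;> simp
  conv_lhs => rw [hx]
  rw [map_add, map_add, map_smul, map_smul, hv]
  refine Prod.ext ?_ (Prod.ext ?_ ?_)
  · simp [hl]; ring
  · simp [hu0]
  · simp [hb]

theorem stabElt_inj {u u' : Module.End F W} {a a' : W} {c c' : F}
    (h : stabElt B u a c = stabElt B u' a' c') : u = u' ∧ a = a' ∧ c = c' := by
  have h1 := congr($h ((0 : F), (0 : W), (1 : F)))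
  simp at h1
  refine ⟨LinearMap.ext fun w => ?_, h1.2, h1.1⟩
  have h2 := congr($h ((0 : F), w, (0 : F)))
  simp at h2
  exact h2.2

/-- The stabiliser of `(1,0,0)` in the unipotent isometries of the model. -/
theorem card_stab (hB : B.IsAlt) (j : ℕ) :
    Nat.card {g : Uni (modelForm B) // g.1 (1, 0, 0) = (1, 0, 0) ∧
        fixCard g.1 = Fintype.card F ^ j} =
      Nat.card {x : Uni B × W × F //
        fixCard (stabElt B x.1.1 x.2.1 x.2.2) = Fintype.card F ^ j} := by
  refine (Nat.card_eq_of_bijective (fun x => ⟨⟨stabElt B x.1.1.1 x.1.2.1 x.1.2.2,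
    stabElt_isometry hB x.1.1.2.1 _ _, (isNilpotent_stab _ _ _).2 x.1.1.2.2⟩,
    by simp, x.2⟩) ⟨fun x y h => ?_, fun g => ?_⟩).symm
  · obtain ⟨h1, h2, h3⟩ := stabElt_inj (congrArg (fun z => z.1.1) h)
    exact Subtype.ext (Prod.ext (Subtype.ext h1) (Prod.ext h2 h3))
  · obtain ⟨u, a, c, hu, he⟩ := exists_eq_stabElt hB g.1.1 g.1.2.1 g.2.1
    refine ⟨⟨(⟨u, hu, (isNilpotent_stab u a c).1 (he ▸ g.1.2.2)⟩, a, c), ?_⟩,
      Subtype.ext (Subtype.ext he.symm)⟩
    show fixCard (stabElt B u a c) = _
    rw [← he]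
    exact g.2.2

/-! Fixed points of the elements of the stabiliser. -/

theorem mem_fix_iff (u : Module.End F W) (a : W) (c : F) (x : F × W × F) :
    stabElt B u a c x = x ↔ B (u x.2.1) a = c * x.2.2 ∧ (u - 1) x.2.1 + x.2.2 • a = 0 := by
  rw [stabElt_apply, Prod.ext_iff, Prod.ext_iff]
  simp only [and_true, LinearMap.sub_apply, Module.End.one_apply]
  refine and_congr ⟨fun h => ?_, fun h => ?_⟩ ⟨fun h => ?_, fun h => ?_⟩
  · linear_combination -h
  · linear_combination -h
  · rw [← sub_eq_zero.2 h]; abel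
  · refine sub_eq_zero.1 (Eq.trans ?_ h); abel

variable {u : Module.End F W}

theorem orth_range (hu : ∀ x y, B (u x) (u y) = B x y) {k : W} (hk : k ∈ ker (u - 1)) (w : W) :
    B k ((u - 1) w) = 0 := by
  have hk' : u k = k := by simpa [sub_eq_zero] using hk
  rw [LinearMap.sub_apply, Module.End.one_apply, map_sub, sub_eq_zero]
  conv_lhs => rw [← hk']
  exact hu k w

theorem mem_range_of_orth (hnd : ∀ x, (∀ y, B x y = 0) → x = 0)
    (hu : ∀ x y, B (u x) (u y) = B x y) {a : W} (ha : ∀ k ∈ ker (u - 1), B k a = 0) :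
    a ∈ range (u - 1) := by
  haveI : FiniteDimensional F W := Module.Finite.of_finite
  let K : Submodule F W := ker (u - 1)
  let φ : W →ₗ[F] Dual F K := K.subtype.dualMap.comp B.flip
  have hinj : Function.Injective B := (injective_iff_map_eq_zero B).2 fun x hx =>
    hnd x fun y => by rw [hx, LinearMap.zero_apply]
  have hflip : Function.Surjective B.flip := by
    have h1 : Function.Bijective B :=
      ⟨hinj, (injective_iff_surjective_of_finrank_eq_finrank (by rw [Subspace.dual_finrank_eq])).1 hinj⟩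
    have : Function.Injective B.flip := (injective_iff_map_eq_zero B.flip).2 fun y hy => by
      refine (Module.forall_dual_apply_eq_zero_iff F y).1 fun f => ?_
      obtain ⟨x, rfl⟩ := h1.2 f
      exact congr($hy x)
    exact (injective_iff_surjective_of_finrank_eq_finrank (by rw [Subspace.dual_finrank_eq])).1 this
  have hφ : Function.Surjective φ :=
    (dualMap_surjective_of_injective K.injective_subtype).comp hflip
  have h2 := φ.finrank_range_add_finrank_ker
  rw [LinearMap.range_eq_top.2 hφ, finrank_top, Subspace.dual_finrank_eq] at h2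
  have h3 := (u - 1).finrank_range_add_finrank_ker
  have hle : range (u - 1) ≤ ker φ := by
    rintro _ ⟨w, rfl⟩
    exact LinearMap.ext fun k => orth_range hu k.2 w
  have : range (u - 1) = ker φ :=
    Submodule.eq_of_le_of_finrank_le hle (by change finrank F K + _ = _ at h2; change _ + finrank F K = _ at h3; omega)
  rw [this]
  exact LinearMap.ext fun k => ha k k.2

open scoped Classical in
theorem fixCard_of_mem (hu : ∀ x y, B (u x) (u y) = B x y) (a w₀ : W) (ha : (u - 1) w₀ = a)
    (c : F) :
    fixCard (stabElt B u a c) = Fintype.card F ^ (finrank F (ker (u - 1)) +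
      if c = -B (u w₀) a then 2 else 1) := by
  have key : ∀ k ∈ ker (u - 1), B (u k) a = 0 := fun k hk => by
    rw [show u k = k by simpa [sub_eq_zero] using hk, ← ha]
    exact orth_range hu hk w₀
  let T := {β : F // β * (c + B (u w₀) a) = 0}
  have e : {x : F × W × F // stabElt B u a c x = x} ≃ F × ker (u - 1) × T :=
    { toFun := fun x => (x.1.1, ⟨x.1.2.1 + x.1.2.2 • w₀, by
        rw [LinearMap.mem_ker, map_add, map_smul, ha]
        exact ((mem_fix_iff u a c x.1).1 x.2).2⟩, ⟨x.1.2.2, by
        obtain ⟨h1, h2⟩ := (mem_fix_iff u a c x.1).1 x.2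
        have := key (x.1.2.1 + x.1.2.2 • w₀) (by
          rw [LinearMap.mem_ker, map_add, map_smul, ha]; exact h2)
        simp only [map_add, map_smul, LinearMap.add_apply, LinearMap.smul_apply, smul_eq_mul] at this
        linear_combination this - h1⟩)
      invFun := fun y => ⟨(y.1, (y.2.1 : W) - (y.2.2 : F) • w₀, (y.2.2 : F)), by
        refine (mem_fix_iff u a c _).2 ⟨?_, ?_⟩
        · simp only [map_sub, map_smul, LinearMap.sub_apply, LinearMap.smul_apply, smul_eq_mul,
            key _ y.2.1.2]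
          linear_combination -y.2.2.2
        · rw [map_sub, map_smul, ha, LinearMap.mem_ker.1 y.2.1.2]; abel⟩
      left_inv := fun x => Subtype.ext (by simp)
      right_inv := fun y => by simp }
  rw [fixCard, Nat.card_congr e, Nat.card_prod, Nat.card_prod, natCard_eq_pow,
    Nat.card_eq_fintype_card (α := F)]
  by_cases hc : c = -B (u w₀) a
  · rw [if_pos hc, Nat.card_congr (Equiv.subtypeUnivEquiv fun β => by rw [hc]; ring),
      Nat.card_eq_fintype_card]
    ring
  · haveI : Unique T :=
      { default := ⟨0, zero_mul _⟩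
        uniq := fun β => Subtype.ext ((mul_eq_zero.1 β.2).resolve_right fun h =>
          hc (eq_neg_of_add_eq_zero_left h)) }
    rw [if_neg hc, Nat.card_unique]
    ring

theorem fixCard_of_not_mem (hnd : ∀ x, (∀ y, B x y = 0) → x = 0)
    (hu : ∀ x y, B (u x) (u y) = B x y) {a : W} (ha : a ∉ range (u - 1)) (c : F) :
    fixCard (stabElt B u a c) = Fintype.card F ^ finrank F (ker (u - 1)) := by
  haveI : FiniteDimensional F W := Module.Finite.of_finite
  let ψ : ker (u - 1) →ₗ[F] F := (B.flip a).comp (ker (u - 1)).subtype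
  have hψ : ψ ≠ 0 := fun h => ha (mem_range_of_orth hnd hu fun k hk => congr($h ⟨k, hk⟩))
  have e : {x : F × W × F // stabElt B u a c x = x} ≃ F × ker ψ :=
    { toFun := fun x =>
        have hb : x.1.2.2 = 0 := by
          by_contra hb
          obtain ⟨-, h2⟩ := (mem_fix_iff u a c x.1).1 x.2
          exact ha ⟨(x.1.2.2)⁻¹ • (-x.1.2.1), by
            rw [map_smul, map_neg, eq_neg_of_add_eq_zero_left h2, neg_neg, smul_smul,
              inv_mul_cancel₀ hb, one_smul]⟩
        (x.1.1, ⟨⟨x.1.2.1, by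
          have h2 := ((mem_fix_iff u a c x.1).1 x.2).2
          rwa [hb, zero_smul, add_zero] at h2⟩, by
          obtain ⟨h1, h2⟩ := (mem_fix_iff u a c x.1).1 x.2
          rw [hb, zero_smul, add_zero, LinearMap.sub_apply, Module.End.one_apply, sub_eq_zero] at h2
          rw [hb, mul_zero, h2] at h1
          exact h1⟩)
      invFun := fun y => ⟨(y.1, ((y.2 : ker (u - 1)) : W), 0), by
        have h2 : (u - 1) ((y.2 : ker (u - 1)) : W) = 0 := (y.2 : ker (u - 1)).2
        refine (mem_fix_iff u a c _).2 ⟨?_, by simpa using h2⟩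
        rw [LinearMap.sub_apply, Module.End.one_apply, sub_eq_zero] at h2
        rw [mul_zero, h2]
        exact y.2.2⟩
      left_inv := fun x => by
        have hb : x.1.2.2 = 0 := by
          by_contra hb
          obtain ⟨-, h2⟩ := (mem_fix_iff u a c x.1).1 x.2
          exact ha ⟨(x.1.2.2)⁻¹ • (-x.1.2.1), by
            rw [map_smul, map_neg, eq_neg_of_add_eq_zero_left h2, neg_neg, smul_smul,
              inv_mul_cancel₀ hb, one_smul]⟩
        exact Subtype.ext (Prod.ext rfl (Prod.ext rfl hb.symm))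
      right_inv := fun y => rfl }
  have hs : Function.Surjective ψ := LinearMap.surjective hψ
  have h2 := ψ.finrank_range_add_finrank_ker
  rw [LinearMap.range_eq_top.2 hs, finrank_top, finrank_self] at h2
  rw [fixCard, Nat.card_congr e, Nat.card_prod, natCard_eq_pow (F := F) (ker ψ),
    Nat.card_eq_fintype_card (α := F), ← h2, pow_add, pow_one]

end CfsgLib.SympUnipotent
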