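import Mathlib.Algebra.BigOperators.Intervals
import Mathlib.Algebra.BigOperators.Ring.Finset
import Mathlib.Tactic.LinearCombination
import Mathlib.Tactic.Ring

/-!
The `q`-identities behind the count of unipotent elements of symplectic groups: the closed formula
for the number of unipotent elements with a fixed space of given dimension, the recursion it
satisfies and its sum.
-/

set_option autoImplicit false

namespace CfsgLib.SympUnipotent

open Finset

/-- Gaussian binomial coefficient. -/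
def qb (Q : ℤ) : ℕ → ℕ → ℤ
  | _, 0 => 1
  | 0, _ + 1 => 0
  | n + 1, k + 1 => qb Q n k + Q ^ (k + 1) * qb Q n (k + 1)

@[simp] theorem qb_zero (Q : ℤ) (n : ℕ) : qb Q n 0 = 1 := by cases n <;> rfl

theorem qb_eq_zero (Q : ℤ) : ∀ {n k : ℕ}, n < k → qb Q n k = 0
  | 0, k + 1, _ => rfl
  | n + 1, k + 1, h => by
    rw [qb, qb_eq_zero Q (by omega), qb_eq_zero Q (by omega)]; ring

theorem qb_step (Q : ℤ) (n : ℕ) : ∀ i : ℕ,
    (Q ^ (i + 1) - 1) * Q ^ i * qb Q n (i + 1) = (Q ^ n - Q ^ i) * qb Q n i := by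
  induction n with
  | zero =>
    intro i
    cases i <;> simp [qb]
  | succ n ih =>
    intro i
    cases i with
    | zero =>
      have h := ih 0
      simp only [qb, qb_zero] at h ⊢
      linear_combination Q * h
    | succ i =>
      have h := ih i
      have h' := ih (i + 1)
      simp only [qb]
      linear_combination Q * h + Q ^ (i + 2) * h'

/-- Triangular numbers. -/
def tri : ℕ → ℕ
  | 0 => 0
  | a + 1 => tri a + (a + 1)

/-- `∏_{l<a} (Q^(n-1-l) - 1)`. -/
def pfac (Q : ℤ) (n a : ℕ) : ℤ := ∏ l ∈ range a, (Q ^ (n - 1 - l) - 1)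

theorem pfac_succ_succ (Q : ℤ) (n b : ℕ) :
    pfac Q (n + 1) (b + 1) = (Q ^ n - 1) * pfac Q n b := by
  rw [pfac, prod_range_succ', pfac, mul_comm]
  congr 1
  refine prod_congr rfl fun l _ => ?_
  rw [show n + 1 - 1 - (l + 1) = n - 1 - l by omega]

/-- The count for fixed spaces of dimension `2 i`. -/
def tv (Q : ℤ) (n i : ℕ) : ℤ :=
  if i ≤ n then Q ^ tri (n - i) * qb Q n (n - i) * pfac Q n (n - i) else 0

theorem tv_rec {Q : ℤ} (hQ : Q ≠ 0) {n k : ℕ} (hk : k ≤ n) :
    (Q ^ (k + 1) - 1) * tv Q (n + 1) (k + 1) =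
      (Q ^ (n + 1) - 1) * Q ^ (n - k) * (tv Q n k + (Q ^ (k + 1) - 1) * tv Q n (k + 1)) := by
  obtain ⟨a, rfl⟩ := Nat.exists_eq_add_of_le hk
  cases a with
  | zero => simp [tv, tri, pfac]
  | succ b =>
    have e1 : k + (b + 1) + 1 - (k + 1) = b + 1 := by omega
    have e2 : k + (b + 1) - k = b + 1 := by omega
    have e3 : k + (b + 1) - (k + 1) = b := by omega
    have e4 : k + (b + 1) - 1 - b = k := by omega
    have hE : (Q ^ (b + 1) - 1) * qb Q (k + (b + 1)) (b + 1) =
        (Q ^ (k + 1) - 1) * qb Q (k + (b + 1)) b := by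
      apply mul_left_cancel₀ (pow_ne_zero b hQ)
      linear_combination qb_step Q (k + (b + 1)) b
    rw [tv, if_pos (by omega : k + 1 ≤ k + (b + 1) + 1), tv, if_pos hk, tv,
      if_pos (by omega : k + 1 ≤ k + (b + 1)), e1, e2, e3, pfac_succ_succ]
    rw [show qb Q (k + (b + 1) + 1) (b + 1) = qb Q (k + (b + 1)) b +
      Q ^ (b + 1) * qb Q (k + (b + 1)) (b + 1) from rfl,
      show pfac Q (k + (b + 1)) (b + 1) = pfac Q (k + (b + 1)) b * (Q ^ k - 1) from by
        rw [pfac, prod_range_succ, e4]; rfl,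
      show tri (b + 1) = tri b + (b + 1) from rfl]
    linear_combination ((Q ^ (k + (b + 1)) - 1) * pfac Q (k + (b + 1)) b * Q ^ tri b * Q ^ (b + 1)
      - (Q ^ (k + (b + 1) + 1) - 1) * pfac Q (k + (b + 1)) b * Q ^ tri b * Q ^ (b + 1)
      ) * (-1 : ℤ) * hE

theorem sum_qb_prod (Q X : ℤ) : ∀ n : ℕ,
    ∑ a ∈ range (n + 1), qb Q n a * ∏ l ∈ range a, (X - Q ^ l) = X ^ n
  | 0 => by simp
  | n + 1 => by
    have ih := sum_qb_prod Q X n
    have h1 : ∑ a ∈ range (n + 1), Q ^ (a + 1) * qb Q n (a + 1) * ∏ l ∈ range (a + 1), (X - Q ^ l)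
        + 1 = ∑ a ∈ range (n + 1), Q ^ a * qb Q n a * ∏ l ∈ range a, (X - Q ^ l) := by
      have := sum_range_succ' (fun a => Q ^ a * qb Q n a * ∏ l ∈ range a, (X - Q ^ l)) (n + 1)
      rw [sum_range_succ, qb_eq_zero Q (Nat.lt_succ_self n)] at this
      simp only [pow_zero, qb_zero, range_zero, prod_empty, mul_zero, zero_mul, add_zero,
        one_mul] at this
      exact this.symm
    rw [sum_range_succ']
    simp only [qb, qb_zero, range_zero, prod_empty, mul_one, add_mul, sum_add_distrib]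
    rw [add_assoc, h1, ← sum_add_distrib, pow_succ, ← ih, sum_mul]
    exact sum_congr rfl fun a _ => by rw [prod_range_succ]; ring

theorem sum_tv (Q : ℤ) (hQ : Q ≠ 0) (n : ℕ) :
    ∑ i ∈ range (n + 1), Q ^ i * tv Q n i = Q ^ (n * n) := by
  rcases Nat.eq_zero_or_pos n with rfl | hn
  · simp [tv, tri, pfac]
  rw [← sum_range_reflect]
  have key : ∀ a, a ≤ n → Q ^ (n - a) * (Q ^ tri a * pfac Q n a) =
      Q ^ n * ∏ l ∈ range a, (Q ^ (n - 1) - Q ^ l) := by
    intro a
    induction a with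
    | zero => simp [tri, pfac]
    | succ a ih =>
      intro ha
      have h := ih (by omega)
      rw [show tri (a + 1) = tri a + (a + 1) from rfl, pfac, prod_range_succ, prod_range_succ,
        ← mul_assoc (Q ^ n)]
      rw [show ∏ l ∈ range a, (Q ^ (n - 1 - l) - 1) = pfac Q n a from rfl]
      rw [show n - a = (n - (a + 1)) + 1 by omega, pow_succ] at h
      have h2 : Q ^ (n - 1) = Q ^ a * Q ^ (n - 1 - a) := by
        rw [← pow_add]; congr 1; omega
      rw [← h, h2]
      ring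
  have : ∀ a ∈ range (n + 1), Q ^ (n + 1 - 1 - a) * tv Q n (n + 1 - 1 - a) =
      Q ^ n * (qb Q n a * ∏ l ∈ range a, (Q ^ (n - 1) - Q ^ l)) := by
    intro a ha
    have ha' : a ≤ n := Nat.lt_succ_iff.1 (mem_range.1 ha)
    rw [Nat.add_sub_cancel, tv, if_pos (by omega), show n - (n - a) = a by omega]
    linear_combination qb Q n a * key a ha'
  rw [sum_congr rfl this, ← mul_sum, sum_qb_prod, ← pow_mul, ← pow_add]
  congr 1
  obtain ⟨m, rfl⟩ : ∃ m, n = m + 1 := ⟨n - 1, by omega⟩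
  simp only [Nat.add_sub_cancel]; ring

/-- Number of unipotent elements of `Sp_{2n}(q)` whose fixed space has dimension `j`. -/
def gv (q : ℤ) (n j : ℕ) : ℤ :=
  if j % 2 = 0 then tv (q ^ 2) n (j / 2)
  else ((q ^ 2) ^ (j / 2 + 1) - 1) * tv (q ^ 2) n (j / 2 + 1)

theorem gv_eq_zero (q : ℤ) {n j : ℕ} (h : 2 * n < j) : gv q n j = 0 := by
  unfold gv tv
  split_ifs <;> first | omega | simp

theorem gv_zero_zero (q : ℤ) : gv q 0 0 = 1 := by simp [gv, tv, tri, pfac]

theorem gv_succ_zero (q : ℤ) (n : ℕ) : gv q (n + 1) 0 = 0 := by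
  simp [gv, tv, pfac_succ_succ, pfac, prod_range_succ]

theorem gv_rec {q : ℤ} (hq : q ≠ 0) (n j : ℕ) :
    (q ^ j - 1) * gv q (n + 1) j = (q ^ (2 * n + 2) - 1) *
      ((if 2 ≤ j then q ^ (2 * n - (j - 2)) * gv q n (j - 2) else 0) +
        (if 1 ≤ j then (q - 1) * q ^ (2 * n - (j - 1)) * gv q n (j - 1) else 0) +
        q * (q ^ (2 * n) - q ^ (2 * n - j)) * gv q n j) := by
  rcases Nat.lt_or_ge (2 * n + 2) j with hj | hj
  · rw [gv_eq_zero q (by omega : 2 * (n + 1) < j), gv_eq_zero q (by omega : 2 * n < j),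
      gv_eq_zero q (by omega : 2 * n < j - 1), gv_eq_zero q (by omega : 2 * n < j - 2)]
    simp
  obtain ⟨k, rfl | rfl⟩ : ∃ k, j = 2 * k ∨ j = 2 * k + 1 := ⟨j / 2, by omega⟩
  · cases k with
    | zero => simp
    | succ k =>
      have hr := tv_rec (pow_ne_zero 2 hq) (n := n) (k := k) (by omega)
      have g1 : gv q (n + 1) (2 * (k + 1)) = tv (q ^ 2) (n + 1) (k + 1) := by
        rw [gv, if_pos (by omega), show 2 * (k + 1) / 2 = k + 1 by omega]
      have g2 : gv q n (2 * (k + 1) - 2) = tv (q ^ 2) n k := by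
        rw [gv, if_pos (by omega), show (2 * (k + 1) - 2) / 2 = k by omega]
      have g3 : gv q n (2 * (k + 1) - 1) = ((q ^ 2) ^ (k + 1) - 1) * tv (q ^ 2) n (k + 1) := by
        rw [gv, if_neg (by omega), show (2 * (k + 1) - 1) / 2 = k by omega]
      have g4 : gv q n (2 * (k + 1)) = tv (q ^ 2) n (k + 1) := by
        rw [gv, if_pos (by omega), show 2 * (k + 1) / 2 = k + 1 by omega]
      rw [if_pos (by omega), if_pos (by omega), g1, g2, g3, g4,
        show 2 * n - (2 * (k + 1) - 2) = 2 * (n - k) by omega]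
      rcases Nat.lt_or_ge k n with hkn | hkn
      · rw [show 2 * n - (2 * (k + 1) - 1) = 2 * (n - k - 1) + 1 by omega,
          show 2 * n - 2 * (k + 1) = 2 * (n - k - 1) by omega]
        obtain ⟨e, rfl⟩ : ∃ e, n = k + 1 + e := Nat.exists_eq_add_of_le hkn
        rw [show k + 1 + e - k = e + 1 by omega] at hr ⊢
        rw [show e + 1 - 1 = e by omega]
        simp only [← pow_mul] at hr ⊢
        linear_combination hr
      · have h0 : tv (q ^ 2) n (k + 1) = 0 := by rw [tv, if_neg (by omega)]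
        rw [h0] at hr ⊢
        simp only [← pow_mul] at hr ⊢
        linear_combination hr
  · have hr := tv_rec (pow_ne_zero 2 hq) (n := n) (k := k) (by omega)
    have g1 : gv q (n + 1) (2 * k + 1) = ((q ^ 2) ^ (k + 1) - 1) * tv (q ^ 2) (n + 1) (k + 1) := by
      rw [gv, if_neg (by omega), show (2 * k + 1) / 2 = k by omega]
    have g3 : gv q n (2 * k + 1 - 1) = tv (q ^ 2) n k := by
      rw [gv, if_pos (by omega), show (2 * k + 1 - 1) / 2 = k by omega]
    have g4 : gv q n (2 * k + 1) = ((q ^ 2) ^ (k + 1) - 1) * tv (q ^ 2) n (k + 1) := by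
      rw [gv, if_neg (by omega), show (2 * k + 1) / 2 = k by omega]
    have g2 : (if 2 ≤ 2 * k + 1 then q ^ (2 * n - (2 * k + 1 - 2)) * gv q n (2 * k + 1 - 2) else 0) =
        q ^ (2 * (n - k) + 1) * (((q ^ 2) ^ k - 1) * tv (q ^ 2) n k) := by
      cases k with
      | zero => simp
      | succ l =>
        rw [if_pos (by omega), gv, if_neg (by omega),
          show (2 * (l + 1) + 1 - 2) / 2 = l by omega,
          show 2 * n - (2 * (l + 1) + 1 - 2) = 2 * (n - (l + 1)) + 1 by omega]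
    rw [g2, if_pos (by omega), g1, g3, g4, show 2 * n - (2 * k + 1 - 1) = 2 * (n - k) by omega]
    rcases Nat.lt_or_ge k n with hkn | hkn
    · obtain ⟨e, rfl⟩ : ∃ e, n = k + 1 + e := Nat.exists_eq_add_of_le hkn
      rw [show k + 1 + e - k = e + 1 by omega] at hr ⊢
      rw [show 2 * (k + 1 + e) - (2 * k + 1) = 2 * e + 1 by omega]
      simp only [← pow_mul] at hr ⊢
      linear_combination (q ^ (2 * k + 1) - 1) * hr
    · have h0 : tv (q ^ 2) n (k + 1) = 0 := by rw [tv, if_neg (by omega)]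
      rw [h0] at hr ⊢
      simp only [← pow_mul] at hr ⊢
      linear_combination (q ^ (2 * k + 1) - 1) * hr

theorem sum_gv {q : ℤ} (hq : q ≠ 0) (n : ℕ) :
    ∑ j ∈ range (2 * n + 1), gv q n j = q ^ (2 * n ^ 2) := by
  have hs := sum_tv (q ^ 2) (pow_ne_zero 2 hq) n
  have hp : ∀ m, ∑ j ∈ range (2 * m + 1), gv q n j =
      ∑ i ∈ range (m + 1), (q ^ 2) ^ i * tv (q ^ 2) n i := by
    intro m
    induction m with
    | zero => simp [gv]
    | succ m ih =>
      rw [show 2 * (m + 1) + 1 = 2 * m + 1 + 1 + 1 by ring, sum_range_succ, sum_range_succ, ih,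
        sum_range_succ _ (m + 1), gv, if_neg (by omega), gv, if_pos (by omega),
        show (2 * m + 1) / 2 = m by omega, show (2 * m + 1 + 1) / 2 = m + 1 by omega]
      ring
  rw [hp n, hs, ← pow_mul]
  congr 1
  ring

end CfsgLib.SympUnipotent
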