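import Cfsg.Agent.Lib.SympUnipotent.Count

/-!
The number of unipotent isometries of a nondegenerate alternating space of dimension `2n` over
a field with `q` elements is `q ^ (2 n²)`.
-/

set_option autoImplicit false
set_option linter.unusedSectionVars false

universe u

namespace CfsgLib.SympUnipotent

open Module LinearMap Finset

variable {F : Type u} [Field F] [Fintype F]

/-- Number of unipotent isometries with fixed space of dimension `j`. -/
noncomputable def cnt {V : Type u} [AddCommGroup V] [Module F V] (B : V →ₗ[F] V →ₗ[F] F) (j : ℕ) : ℕ :=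
  Nat.card {g : Uni B // fixCard g.1 = Fintype.card F ^ j}

variable {W : Type u} [AddCommGroup W] [Module F W] [Finite W] {B : W →ₗ[F] W →ₗ[F] F}

theorem finite_uni {V : Type u} [AddCommGroup V] [Module F V] [Finite V] (C : V →ₗ[F] V →ₗ[F] F) :
    Finite (Uni C) :=
  haveI : Finite (Module.End F V) := Finite.of_injective _ DFunLike.coe_injective
  inferInstance

theorem natCard_subtype_cast {α : Type*} [Fintype α] (P : α → Prop) [DecidablePred P] :
    (Nat.card {x // P x} : ℤ) = ∑ x : α, if P x then 1 else 0 := by
  rw [Nat.card_eq_fintype_card, Fintype.card_subtype, sum_boole]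

open scoped Classical in
theorem cast_card_stab_fibre [Fintype W] (hnd : ∀ x, (∀ y, B x y = 0) → x = 0) {n : ℕ}
    (hW : finrank F W = 2 * n) (u : Uni B) (j : ℕ) :
    (∑ a : W, ∑ c : F, if fixCard (stabElt B u.1 a c) = Fintype.card F ^ j then (1 : ℤ) else 0) =
      (if finrank F (ker (u.1 - 1)) + 2 = j then
          (Fintype.card F : ℤ) ^ (2 * n - finrank F (ker (u.1 - 1))) else 0) +
        (if finrank F (ker (u.1 - 1)) + 1 = j then
          ((Fintype.card F : ℤ) - 1) * (Fintype.card F : ℤ) ^ (2 * n - finrank F (ker (u.1 - 1)))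
          else 0) +
        (if finrank F (ker (u.1 - 1)) = j then (Fintype.card F : ℤ) *
          ((Fintype.card F : ℤ) ^ (2 * n) -
            (Fintype.card F : ℤ) ^ (2 * n - finrank F (ker (u.1 - 1)))) else 0) := by
  set q : ℤ := (Fintype.card F : ℤ) with hqdef
  set d := finrank F (ker (u.1 - 1)) with hddef
  haveI : FiniteDimensional F W := Module.Finite.of_finite
  have hfr : finrank F (range (u.1 - 1)) = 2 * n - d := by
    have h := (u.1 - 1).finrank_range_add_finrank_ker
    change _ + d = _ at h
    omega
  have hR : ((univ.filter fun a => a ∈ range (u.1 - 1)).card : ℤ) = q ^ (2 * n - d) := by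
    have h : Nat.card (range (u.1 - 1)) = Fintype.card F ^ (2 * n - d) := by
      rw [natCard_eq_pow, hfr]
    rw [← Fintype.card_subtype, ← Nat.card_eq_fintype_card]
    change ((Nat.card (range (u.1 - 1)) : ℕ) : ℤ) = _
    rw [h, Nat.cast_pow]
  have hNR : ((univ.filter fun a => a ∉ range (u.1 - 1)).card : ℤ) = q ^ (2 * n) - q ^ (2 * n - d) := by
    have h := card_filter_add_card_filter_not (s := (univ : Finset W))
      (p := fun a => a ∈ range (u.1 - 1))
    have hc : (univ : Finset W).card = Fintype.card F ^ (2 * n) := by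
      rw [card_univ, Module.card_eq_pow_finrank (K := F), hW]
    rw [hc] at h
    have h' := congrArg (fun m : ℕ => (m : ℤ)) h
    simp only [Nat.cast_add, Nat.cast_pow] at h'
    linear_combination h' - hR
  let v1 : ℤ := (if d + 2 = j then 1 else 0) + (if d + 1 = j then q - 1 else 0)
  let v2 : ℤ := if d = j then q else 0
  have key : ∀ a : W, (∑ c : F, if fixCard (stabElt B u.1 a c) = Fintype.card F ^ j then (1 : ℤ)
      else 0) = if a ∈ range (u.1 - 1) then v1 else v2 := by
    intro a
    split_ifs with ha
    · obtain ⟨w, hw⟩ := ha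
      have : ∀ c, (fixCard (stabElt B u.1 a c) = Fintype.card F ^ j) ↔
          d + (if c = -B (u.1 w) a then 2 else 1) = j := fun c => by
        rw [fixCard_of_mem u.2.1 a w hw c]
        exact ⟨fun h => pow_q_inj h, fun h => congrArg _ h⟩
      simp only [this]
      rw [← Finset.add_sum_erase _ _ (mem_univ (-B (u.1 w) a)), if_pos rfl,
        Finset.sum_congr rfl fun c hc => by rw [if_neg (Finset.ne_of_mem_erase hc)],
        sum_const, card_erase_of_mem (mem_univ _), card_univ, nsmul_eq_mul,
        Nat.cast_sub Fintype.card_pos, Nat.cast_one, mul_ite, mul_one, mul_zero]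
    · have : ∀ c, (fixCard (stabElt B u.1 a c) = Fintype.card F ^ j) ↔ d = j := fun c => by
        rw [fixCard_of_not_mem hnd u.2.1 ha c]
        exact ⟨fun h => pow_q_inj h, fun h => congrArg _ h⟩
      simp only [this, sum_const, card_univ, nsmul_eq_mul, v2, mul_ite, mul_one, mul_zero, q]
  rw [sum_congr rfl fun a _ => key a, sum_ite, sum_const, sum_const, nsmul_eq_mul, nsmul_eq_mul,
    hR, hNR]
  simp only [v1, v2]
  split_ifs <;> first | omega | ring

theorem card_stab_formula (hB : B.IsAlt) (hnd : ∀ x, (∀ y, B x y = 0) → x = 0) {n : ℕ}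
    (hW : finrank F W = 2 * n)
    (ih : ∀ i, (cnt B i : ℤ) = gv (Fintype.card F : ℤ) n i) (j : ℕ) :
    (Nat.card {g : Uni (modelForm B) // g.1 (1, 0, 0) = (1, 0, 0) ∧
        fixCard g.1 = Fintype.card F ^ j} : ℤ) =
      (if 2 ≤ j then (Fintype.card F : ℤ) ^ (2 * n - (j - 2)) * gv (Fintype.card F : ℤ) n (j - 2)
        else 0) +
        (if 1 ≤ j then ((Fintype.card F : ℤ) - 1) * (Fintype.card F : ℤ) ^ (2 * n - (j - 1)) *
          gv (Fintype.card F : ℤ) n (j - 1) else 0) +
        (Fintype.card F : ℤ) * ((Fintype.card F : ℤ) ^ (2 * n) - (Fintype.card F : ℤ) ^ (2 * n - j)) *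
          gv (Fintype.card F : ℤ) n j := by
  classical
  set q : ℤ := (Fintype.card F : ℤ) with hqdef
  letI : Fintype W := Fintype.ofFinite W
  haveI : Finite (Uni B) := finite_uni B
  letI : Fintype (Uni B) := Fintype.ofFinite _
  rw [card_stab hB j, natCard_subtype_cast, Fintype.sum_prod_type]
  have h1 : ∀ u : Uni B, (∑ y : W × F, if fixCard (stabElt B u.1 y.1 y.2) = Fintype.card F ^ j then
      (1 : ℤ) else 0) = _ := fun u => (Fintype.sum_prod_type _).trans (cast_card_stab_fibre hnd hW u j)
  rw [sum_congr rfl fun u _ => h1 u]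
  simp only [sum_add_distrib]
  have hs : ∀ (s : ℕ) (f : ℕ → ℤ), (∑ u : Uni B,
      if finrank F (ker (u.1 - 1)) + s = j then f (finrank F (ker (u.1 - 1))) else 0) =
      if s ≤ j then f (j - s) * gv q n (j - s) else 0 := by
    intro s f
    split_ifs with hsj
    · rw [← ih, cnt, natCard_subtype_cast, mul_sum]
      refine sum_congr rfl fun u _ => ?_
      rw [fixCard_eq]
      by_cases h : finrank F (ker (u.1 - 1)) + s = j
      · rw [if_pos h, if_pos (congrArg _ (by omega)), mul_one,
          show j - s = finrank F (ker (u.1 - 1)) by omega]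
      · rw [if_neg h, if_neg (fun h' => h (by have := pow_q_inj h'; omega)), mul_zero]
    · exact sum_eq_zero fun u _ => if_neg (by omega)
  have e0 := hs 0 fun d => q * (q ^ (2 * n) - q ^ (2 * n - d))
  simp only [add_zero, Nat.zero_le, if_true, Nat.sub_zero] at e0
  rw [hs 2 fun d => q ^ (2 * n - d), hs 1 fun d => (q - 1) * q ^ (2 * n - d), e0]

theorem cnt_eq : ∀ (n : ℕ) (V : Type u) [AddCommGroup V] [Module F V] [Finite V]
    (B : V →ₗ[F] V →ₗ[F] F), B.IsAlt → (∀ x, (∀ y, B x y = 0) → x = 0) → finrank F V = 2 * n →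
    ∀ j, (cnt B j : ℤ) = gv (Fintype.card F : ℤ) n j := by
  intro n
  induction n with
  | zero =>
    intro V _ _ _ B _ _ hV j
    haveI : FiniteDimensional F V := Module.Finite.of_finite
    haveI : Subsingleton V := finrank_zero_iff.1 hV
    haveI : Subsingleton (Module.End F V) :=
      ⟨fun a b => LinearMap.ext fun _ => Subsingleton.elim _ _⟩
    have hfix : ∀ g : Module.End F V, fixCard g = Fintype.card F ^ 0 := fun g => by
      rw [pow_zero]
      exact Nat.card_eq_one_iff_unique.2 ⟨inferInstance, ⟨⟨0, map_zero g⟩⟩⟩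
    cases j with
    | zero =>
      rw [gv_zero_zero, cnt, Nat.card_eq_one_iff_unique.2 ⟨inferInstance, ⟨⟨⟨1, fun _ _ => rfl,
        1, Subsingleton.elim _ _⟩, hfix _⟩⟩⟩, Nat.cast_one]
    | succ j =>
      rw [gv_eq_zero _ (by omega : 2 * 0 < j + 1), cnt,
        Nat.card_eq_zero.2 (Or.inl ⟨fun g => absurd (pow_q_inj ((hfix g.1.1).symm.trans g.2))
          (by omega)⟩), Nat.cast_zero]
  | succ n ih =>
    intro V _ _ _ B hB hnd hV j
    haveI : FiniteDimensional F V := Module.Finite.of_finite
    haveI : Nontrivial V := nontrivial_of_finrank_pos (R := F) (by omega)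
    cases j with
    | zero =>
      rw [gv_succ_zero, cnt, Nat.card_eq_zero.2 (Or.inl ⟨?_⟩), Nat.cast_zero]
      rintro ⟨g, hg⟩
      obtain ⟨N, hN⟩ := g.2.2
      have hk : finrank F (ker (g.1 - 1)) = 0 := pow_q_inj ((fixCard_eq g.1).symm.trans hg)
      have hinj : Function.Injective (⇑(g.1 - 1 : Module.End F V)) :=
        LinearMap.ker_eq_bot.1 (Submodule.finrank_eq_zero.1 hk)
      have hN' : Function.Injective (⇑((g.1 - 1 : Module.End F V) ^ N)) := by
        rw [Module.End.coe_pow]; exact hinj.iterate N
      obtain ⟨x, hx⟩ := exists_ne (0 : V)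
      exact hx (hN' (by rw [hN]; simp))
    | succ i =>
      classical
      let q : ℤ := Fintype.card F
      let S : ℤ := (if 2 ≤ i + 1 then q ^ (2 * n - (i + 1 - 2)) * gv q n (i + 1 - 2) else 0) +
        (if 1 ≤ i + 1 then (q - 1) * q ^ (2 * n - (i + 1 - 1)) * gv q n (i + 1 - 1) else 0) +
        q * (q ^ (2 * n) - q ^ (2 * n - (i + 1))) * gv q n (i + 1)
      have hv : ∀ v : V, v ≠ 0 → (Nat.card {g : Uni B //
          g.1 v = v ∧ fixCard g.1 = Fintype.card F ^ (i + 1)} : ℤ) = S := by
        intro v hv
        obtain ⟨y, hy⟩ : ∃ y, B v y ≠ 0 := by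
          by_contra h
          push Not at h
          exact hv (hnd v h)
        obtain ⟨f, hvf⟩ : ∃ f, B v f = 1 := ⟨(B v y)⁻¹ • y, by simp [hy]⟩
        have hfv : B f v = -1 := by rw [← hB.neg, hvf]
        let W : Submodule F V := ker (B v) ⊓ ker (B f)
        let BW : W →ₗ[F] W →ₗ[F] F := B.compl₁₂ W.subtype W.subtype
        have hW1 : ∀ w : W, B v w = 0 := fun w => LinearMap.mem_ker.1 (Submodule.mem_inf.1 w.2).1
        have hW2 : ∀ w : W, B f w = 0 := fun w => LinearMap.mem_ker.1 (Submodule.mem_inf.1 w.2).2
        have hW3 : ∀ w : W, B w v = 0 := fun w => by rw [← hB.neg, hW1, neg_zero]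
        have hW4 : ∀ w : W, B w f = 0 := fun w => by rw [← hB.neg, hW2, neg_zero]
        have hmem : ∀ x, x + B f x • v - B v x • f ∈ W := fun x =>
          Submodule.mem_inf.2 ⟨LinearMap.mem_ker.2 (by simp [hB v, hvf]),
            LinearMap.mem_ker.2 (by simp [hB f, hfv])⟩
        let e : V ≃ₗ[F] F × W × F :=
          { toFun := fun x => (-B f x, ⟨x + B f x • v - B v x • f, hmem x⟩, B v x)
            map_add' := fun x y => by
              refine Prod.ext ?_ (Prod.ext (Subtype.ext ?_) ?_)
              · simp; ring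
              · simp [add_smul]; abel
              · simp
            map_smul' := fun r x => by
              refine Prod.ext ?_ (Prod.ext (Subtype.ext ?_) ?_)
              · simp
              · simp [smul_smul, smul_sub]
              · simp
            invFun := fun z => z.1 • v + (z.2.1 : V) + z.2.2 • f
            left_inv := fun x => by simp; abel
            right_inv := fun z => by
              refine Prod.ext ?_ (Prod.ext (Subtype.ext ?_) ?_)
              · simp [hfv, hW2, hB f]
              · simp [hfv, hvf, hW1, hW2, hB v, hB f]; abel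
              · simp [hvf, hW1, hB v] }
        have hBW : ∀ x y : W, BW x y = B x y := fun x y => rfl
        have he : ∀ x y, modelForm BW (e x) (e y) = B x y := by
          intro x y
          change -B f x * B v y - B v x * -B f y + BW ⟨_, hmem x⟩ ⟨_, hmem y⟩ = B x y
          have e1 : B x v = -B v x := (hB.neg v x).symm
          have e2 : B x f = -B f x := (hB.neg f x).symm
          rw [hBW]
          simp [e1, e2, hB v, hB f, hfv, hvf]
          ring
        have hev : e v = (1, 0, 0) := by
          refine Prod.ext ?_ (Prod.ext (Subtype.ext ?_) ?_)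
          · simp [e, hfv]
          · simp [e, hfv, hB v]
          · simp [e, hB v]
        have hWr : finrank F W = 2 * n := by
          have := e.finrank_eq
          simp [hV] at this
          omega
        have hBWalt : BW.IsAlt := fun x => hB (x : V)
        have hBWnd : ∀ x : W, (∀ y, BW x y = 0) → x = 0 := fun x hx =>
          Subtype.ext (hnd x fun y => by
            have := hx ⟨_, hmem y⟩
            rw [hBW] at this
            simpa [hW3, hW4] using this)
        have hcard : Nat.card {g : Uni B // g.1 v = v ∧ fixCard g.1 = Fintype.card F ^ (i + 1)} =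
            Nat.card {g : Uni (modelForm BW) // g.1 (1, 0, 0) = (1, 0, 0) ∧
              fixCard g.1 = Fintype.card F ^ (i + 1)} := by
          refine Nat.card_congr ((uniEquiv e he).subtypeEquiv fun g => and_congr ?_ ?_)
          · rw [← hev]
            change _ ↔ (LinearEquiv.conjAlgEquiv F e g.1) (e v) = e v
            simp
          · rw [fixCard_uniEquiv]
        rw [hcard]
        exact card_stab_formula hBWalt hBWnd hWr (ih W BW hBWalt hBWnd hWr) (i + 1)
      letI : Fintype V := Fintype.ofFinite V
      haveI : Finite (Uni B) := finite_uni B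
      letI : Fintype (Uni B) := Fintype.ofFinite _
      have hdc : ((q ^ (i + 1) - 1) * (cnt B (i + 1) : ℤ) : ℤ) = (q ^ (2 * n + 2) - 1) * S := by
        have hl : ∀ g : Uni B, (∑ x : V, if x ≠ 0 ∧ g.1 x = x ∧
            fixCard g.1 = Fintype.card F ^ (i + 1) then (1 : ℤ) else 0) =
            if fixCard g.1 = Fintype.card F ^ (i + 1) then q ^ (i + 1) - 1 else 0 := by
          intro g
          split_ifs with hg
          · simp only [hg, and_true]
            have h0 : (univ.filter fun x : V => x ≠ 0 ∧ g.1 x = x) =
                (univ.filter fun x : V => g.1 x = x).erase 0 := by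
              ext x; simp
            have hcard : (univ.filter fun x : V => g.1 x = x).card = Fintype.card F ^ (i + 1) := by
              rw [← hg, fixCard, Nat.card_eq_fintype_card, Fintype.card_subtype]
            rw [sum_boole, h0, card_erase_of_mem (by simp), hcard,
              Nat.cast_sub (Nat.one_le_pow _ _ Fintype.card_pos), Nat.cast_pow, Nat.cast_one]
          · exact sum_eq_zero fun x _ => if_neg fun h => hg h.2.2
        have hr : ∀ x : V, (∑ g : Uni B, if x ≠ 0 ∧ g.1 x = x ∧
            fixCard g.1 = Fintype.card F ^ (i + 1) then (1 : ℤ) else 0) =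
            if x ≠ 0 then S else 0 := by
          intro x
          split_ifs with hx
          · simp only [ne_eq, hx, not_false_iff, true_and]
            rw [← natCard_subtype_cast, hv x hx]
          · simp [not_not.1 hx]
        have := Finset.sum_comm (s := (univ : Finset (Uni B))) (t := (univ : Finset V))
          (f := fun g x => if x ≠ 0 ∧ g.1 x = x ∧
            fixCard g.1 = Fintype.card F ^ (i + 1) then (1 : ℤ) else 0)
        rw [sum_congr rfl fun g _ => hl g, sum_congr rfl fun x _ => hr x, ← sum_filter,
          sum_const, nsmul_eq_mul, ← sum_filter, sum_const, nsmul_eq_mul, filter_ne',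
          card_erase_of_mem (mem_univ _), card_univ, Module.card_eq_pow_finrank (K := F) (V := V),
          hV, Nat.cast_sub (Nat.one_le_pow _ _ Fintype.card_pos), Nat.cast_pow, Nat.cast_one] at this
        rw [cnt, Nat.card_eq_fintype_card, Fintype.card_subtype, mul_comm, this,
          show 2 * (n + 1) = 2 * n + 2 by ring]
      have hq1 : (1 : ℤ) < q := Int.ofNat_lt.2 (one_lt_q (F := F))
      have hne : q ^ (i + 1) - 1 ≠ 0 := by
        have : (1 : ℤ) < q ^ (i + 1) := one_lt_pow₀ hq1 (by omega)
        omega
      exact mul_left_cancel₀ hne (hdc.trans (gv_rec (by omega : q ≠ 0) n (i + 1)).symm)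

theorem card_uni (n : ℕ) (hV : finrank F W = 2 * n) (hB : B.IsAlt)
    (hnd : ∀ x, (∀ y, B x y = 0) → x = 0) :
    Nat.card (Uni B) = Fintype.card F ^ (2 * n ^ 2) := by
  classical
  haveI : FiniteDimensional F W := Module.Finite.of_finite
  haveI : Finite (Uni B) := finite_uni B
  letI : Fintype (Uni B) := Fintype.ofFinite _
  have hd : ∀ g : Uni B, finrank F (ker (g.1 - 1)) ≤ 2 * n := fun g =>
    hV ▸ Submodule.finrank_le _
  have h : (Nat.card (Uni B) : ℤ) = ∑ j ∈ range (2 * n + 1), (cnt B j : ℤ) := by
    rw [Nat.card_eq_fintype_card, ← card_univ, ← Nat.cast_sum]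
    congr 1
    rw [card_eq_sum_card_fiberwise (f := fun g : Uni B => finrank F (ker (g.1 - 1)))
      (t := range (2 * n + 1)) (fun g _ => Finset.mem_range.2 (Nat.lt_succ_iff.2 (hd g)))]
    refine sum_congr rfl fun j _ => ?_
    rw [cnt, Nat.card_eq_fintype_card, Fintype.card_subtype]
    congr 1
    refine filter_congr fun g _ => ?_
    rw [fixCard_eq]
    exact ⟨fun h => congrArg _ h, fun h => pow_q_inj h⟩
  rw [sum_congr rfl fun j _ => cnt_eq n W B hB hnd hV j,
    sum_gv (Nat.cast_ne_zero.2 Fintype.card_ne_zero)] at h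
  exact_mod_cast h

end CfsgLib.SympUnipotent
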