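import Cfsg.Agent.Lib.SympUnipotent.Main
import Mathlib.LinearAlgebra.SymplecticGroup

/-!
The number of elements of `p`-power order of `Matrix.symplecticGroup (Fin m) F`, `F` finite of
characteristic `p`.
-/

set_option autoImplicit false

universe u

namespace CfsgLib.SympUnipotent

open Matrix

variable {F : Type u} [Field F] [Fintype F]

/-- The standard symplectic form. -/
noncomputable def stdForm (F : Type u) [Field F] (m : ℕ) :
    (Fin m ⊕ Fin m → F) →ₗ[F] (Fin m ⊕ Fin m → F) →ₗ[F] F :=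
  Matrix.toLinearMap₂' F (Matrix.J (Fin m) F)

theorem stdForm_apply (m : ℕ) (x y : Fin m ⊕ Fin m → F) :
    stdForm F m x y = x ⬝ᵥ (Matrix.J (Fin m) F *ᵥ y) := by
  rw [stdForm, Matrix.toLinearMap₂'_apply']

theorem isometry_iff (m : ℕ) (A : Matrix (Fin m ⊕ Fin m) (Fin m ⊕ Fin m) F) :
    (∀ x y, stdForm F m (A *ᵥ x) (A *ᵥ y) = stdForm F m x y) ↔
      A ∈ Matrix.symplecticGroup (Fin m) F := by
  have key : ∀ x y : Fin m ⊕ Fin m → F, (A *ᵥ x) ⬝ᵥ (Matrix.J (Fin m) F *ᵥ (A *ᵥ y)) =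
      x ⬝ᵥ ((Aᵀ * Matrix.J (Fin m) F * A) *ᵥ y) := fun x y => by
    rw [← Matrix.mulVec_mulVec, ← Matrix.mulVec_mulVec, Matrix.dotProduct_mulVec x Aᵀ,
      Matrix.vecMul_transpose]
  rw [SymplecticGroup.mem_iff']
  constructor
  · intro h
    apply Matrix.ext_of_mulVec_single
    intro j
    refine funext fun i => ?_
    have := h (Pi.single i 1) (Pi.single j 1)
    rw [stdForm_apply, stdForm_apply, key, single_one_dotProduct, single_one_dotProduct] at this
    exact this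
  · intro h x y
    rw [stdForm_apply, stdForm_apply, key, h]

theorem card_symplectic (p m : ℕ) [Fact p.Prime] [CharP F p] :
    Nat.card {g : ↥(Matrix.symplecticGroup (Fin m) F) // ∃ k : ℕ, orderOf g = p ^ k} =
      Fintype.card F ^ (2 * m ^ 2) := by
  rcases m with - | m
  · haveI : Subsingleton ↥(Matrix.symplecticGroup (Fin 0) F) :=
      ⟨fun a b => Subtype.ext (Subsingleton.elim _ _)⟩
    rw [Nat.card_eq_one_iff_unique.2 ⟨inferInstance, ⟨⟨1, 0, by rw [orderOf_one, pow_zero]⟩⟩⟩]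
    simp
  have halt : (stdForm F (m + 1)).IsAlt := by
    intro x
    rw [stdForm_apply, Matrix.J]
    simp [dotProduct, Fintype.sum_sum_type, Matrix.fromBlocks_mulVec, Matrix.neg_mulVec]
    simp [mul_comm]
  have hnd : ∀ x, (∀ y, stdForm F (m + 1) x y = 0) → x = 0 := by
    intro x hx
    refine funext fun i => ?_
    have := hx (-(Matrix.J (Fin (m + 1)) F *ᵥ Pi.single i 1))
    rw [stdForm_apply, Matrix.mulVec_neg, Matrix.mulVec_mulVec, Matrix.J_squared,
      Matrix.neg_mulVec, neg_neg, Matrix.one_mulVec, dotProduct_single, mul_one] at this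
    exact this
  have hfin : Module.finrank F (Fin (m + 1) ⊕ Fin (m + 1) → F) = 2 * (m + 1) := by
    rw [Module.finrank_fintype_fun_eq_card, Fintype.card_sum, Fintype.card_fin]; ring
  rw [← card_uni (m + 1) hfin halt hnd]
  have hval : ∀ (g : ↥(Matrix.symplecticGroup (Fin (m + 1)) F)) (j : ℕ),
      ((g ^ j : ↥(Matrix.symplecticGroup (Fin (m + 1)) F)) :
        Matrix (Fin (m + 1) ⊕ Fin (m + 1)) (Fin (m + 1) ⊕ Fin (m + 1)) F) = g.1 ^ j :=
    fun g j => SubmonoidClass.coe_pow g j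
  have hmem : ∀ g : ↥(Matrix.symplecticGroup (Fin (m + 1)) F),
      (∃ k, orderOf g = p ^ k) ↔ IsNilpotent (g.1 - 1) := by
    intro g
    have hpow : ∀ k : ℕ, (g.1 - 1) ^ p ^ k = g.1 ^ p ^ k - 1 := fun k => by
      rw [sub_pow_char_pow_of_commute p k (Commute.one_right _), one_pow]
    constructor
    · rintro ⟨k, hk⟩
      exact ⟨p ^ k, by rw [hpow, ← hval, ← hk, pow_orderOf_eq_one, OneMemClass.coe_one, sub_self]⟩
    · rintro ⟨j, hj⟩
      obtain ⟨k, hk⟩ : ∃ k, j ≤ p ^ k :=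
        ⟨j, (Nat.lt_pow_self (Fact.out : p.Prime).one_lt).le⟩
      have h1 : g ^ p ^ k = 1 := Subtype.ext (by
        rw [hval, OneMemClass.coe_one, ← sub_eq_zero, ← hpow, pow_eq_zero_of_le hk hj])
      obtain ⟨i, -, hi⟩ := (Nat.dvd_prime_pow Fact.out).1 (orderOf_dvd_of_pow_eq_one h1)
      exact ⟨i, hi⟩
  refine Nat.card_congr ?_
  refine (Equiv.subtypeEquivRight hmem).trans ((Equiv.subtypeSubtypeEquivSubtypeInter
    (fun A => A ∈ Matrix.symplecticGroup (Fin (m + 1)) F)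
    (fun A => IsNilpotent (A - 1))).trans
      ((Matrix.toLinAlgEquiv' (R := F) (n := Fin (m + 1) ⊕ Fin (m + 1))).toEquiv.subtypeEquiv
        fun A => and_congr ?_ ?_))
  · rw [← isometry_iff]
    simp
  · rw [← IsNilpotent.map_iff (Matrix.toLinAlgEquiv' (R := F)
      (n := Fin (m + 1) ⊕ Fin (m + 1))).injective, map_sub, map_one]
    simp

end CfsgLib.SympUnipotent
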